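import Cfsg.Agent.Lib.Mathieu.Move
import Cfsg.Agent.Lib.Mathieu.Aut2

/-!
# Quartets of a dodecad
-/

set_option autoImplicit false

namespace Cfsg.Lib.Mathieu

open Cfsg.Lib.Golay Cfsg.Lib.Calc Cfsg.Lib.Grp Finset MulAction
open scoped Pointwise

set_option maxRecDepth 100000

theorem forall_subs {α : Type*} [Fintype α] [DecidableEq α] (I : Ix α) {A r : ℕ} {p : ℕ → Bool}
    (h : allSubs A p I.n r 0 = true) {s : Finset α} (hs : s ⊆ I.toF A) (hr : s.card = r) :
    ∃ m < 2 ^ I.n, I.toF m = s ∧ p m = true := by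
  obtain ⟨m, hm, rfl⟩ := I.exists_toF s
  refine ⟨m, hm, rfl, allSubs_spec h ((I.toF m).image I.idx) (fun j hj => ?_)
    (by rw [card_image_of_injective _ I.idx_inj, hr]) m fun j => ?_⟩
  · obtain ⟨a, ha, rfl⟩ := mem_image.1 hj
    exact ⟨I.idx_lt a, I.mem_toF.1 (hs ha)⟩
  · simp only [Nat.zero_testBit, Bool.false_eq_true, false_or, mem_image, I.mem_toF]
    refine ⟨fun e => ?_, fun ⟨a, e, e'⟩ => e' ▸ e⟩
    have : j < I.n := by_contra fun n => by
      simp [Nat.testBit_lt_two_pow (hm.trans_le (Nat.pow_le_pow_right two_pos (not_lt.1 n)))] at e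
    exact ⟨I.pt j, by rwa [I.idx_pt j this], I.idx_pt j this⟩

/-- the hexads on the dodecad of squares -/
def hexL : List ℕ := [343, 591, 797, 858, 4127, 4430, 4441, 4691, 4700, 4875, 4886, 4933, 8285, 8478, 8523, 8731, 8790, 8967, 9036, 9041, 12359, 12378, 12557, 12563, 12628, 12814, 12821, 12873, 13080, 13122, 65627, 65807, 65884, 66078, 66133, 66323, 66374, 66377, 69709, 69718, 69909, 69914, 69955, 70151, 70169, 70218, 70412, 70480, 73751, 73806, 74009, 74053, 74066, 74253, 74307, 74328, 74506, 74516, 77835, 77852, 77905, 78086, 78152, 78354, 78404, 78593, 262238, 262427, 262477, 262679, 262745, 262926, 262979, 262996, 266315, 266325, 266503, 266524, 266578, 266765, 266778, 266822, 267025, 267080, 270351, 270419, 270613, 270662, 270680, 270876, 270917, 270922, 271113, 271122, 274454, 274457, 274508, 274698, 274753, 274947, 275024, 275204, 327709, 327751, 327958, 328010, 328017, 328203, 328268, 328274, 328453, 328472, 331790, 331795, 331864, 332041, 332100, 332308, 332353,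 332546, 335898, 335945, 335956, 336131, 336140, 336390, 336401, 336704, 339973, 340034, 340240, 340488]

theorem memL_hexL {m : ℕ} (hm : m < 2 ^ 24) (h : G.toF m ∈ hexadsOn (G.toF 340831)) : memL m hexL = true := by
  obtain ⟨h1, o, h2, e⟩ := h
  obtain ⟨o, ho, rfl, h3⟩ := forall_octads (p := fun o => bor (!Nat.beq (pc (Nat.land o 340831)) 6)
    (memL (Nat.land o 340831) hexL)) (by decide +kernel) h2
  rw [← e, card_inter_toF ho] at h1
  rw [← G.toF_land, G.toF_eq_iff (a := Nat.land _ _) (Nat.and_le_left.trans_lt ho) hm] at e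
  rwa [h1, e] at h3

/-- the standard quartet -/
def q0 : ℕ := 42312495938246857294086151

theorem q0_mem : decS 4 q0 ∈ quartets (G.toF 340831) := mem_quartets_of_isQuart (by decide +kernel)

theorem eq_q0 {Q : Finset (Finset GolayPt)} (hQ : Q ∈ quartets (G.toF 340831)) (h1 : G.toF 7 ∈ Q) (h2 : G.toF 4120 ∈ Q) :
    Q = decS 4 q0 := by
  refine eq_of_subset_of_card_le (fun v hv => mem_decS.2 ?_) (q0_mem.1.trans hQ.1.symm).le
  by_cases e1 : G.toF 7 = v
  · exact ⟨0, by decide, e1⟩
  by_cases e2 : G.toF 4120 = v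
  · exact ⟨1, by decide, e2⟩
  obtain ⟨m, hm, rfl, h⟩ := forall_subs G (p := fun m => bor (!band (memL (Nat.lor 7 m) hexL) (memL (Nat.lor 4120 m) hexL))
    (anyLt 4 fun i => Nat.beq (g24 q0 i) m)) (by decide +kernel) (hQ.2.1 v hv).2 (hQ.2.1 v hv).1
  rw [memL_hexL (m := Nat.lor _ _) (Nat.or_lt_two_pow (by decide) hm) (G.toF_lor _ _ ▸ hQ.2.2 _ h1 _ hv e1),
    memL_hexL (m := Nat.lor _ _) (Nat.or_lt_two_pow (by decide) hm) (G.toF_lor _ _ ▸ hQ.2.2 _ h2 _ hv e2)] at h
  obtain ⟨i, hi, e⟩ := anyLt_iff.1 ((bor_eq_true.1 h).resolve_left (by decide))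
  exact ⟨i, hi, congrArg _ (beq_iff.1 e)⟩

theorem exists_smul_triples {d t u : Finset GolayPt} (hd : d ∈ dodecads) (ht : t.card = 3) (hu : u.card = 3)
    (h : t ∪ u ∈ hexadsOn d) :
    ∃ g : M24, (g : P24) • G.toF 340831 = d ∧ (g : P24) • G.toF 7 = t ∧ (g : P24) • G.toF 4120 = u := by
  have htu := disjoint_of_card_union (h.1.trans (by rw [ht, hu]))
  have s := ((steinerOn_hexads hd).1 _ h).1
  obtain ⟨a, b, c, n1, n2, n3, rfl⟩ := card_eq_three.1 ht
  obtain ⟨x, hx, y, hy, n4⟩ := one_lt_card.1 (show 1 < u.card by omega)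
  have k := fun z (hz : z ∈ u) => disjoint_right.1 htu hz
  obtain ⟨g, g1, g2⟩ := exists_map_dodecad hd (l := [G.pt 0, G.pt 1, G.pt 2, G.pt 3, G.pt 4]) (l' := [a, b, c, x, y])
    (by decide) (by have := k x hx; have := k y hy; simp only [mem_insert, mem_singleton] at *; simp; grind) rfl le_rfl
    (by decide +kernel) (by simp [s (mem_union_right _ hx), s (mem_union_right _ hy), fun z hz => s (mem_union_left u (a := z) hz)])
  simp only [List.map_cons, List.cons.injEq] at g2
  have e1 : (g : P24) • G.toF 7 = {a, b, c} := by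
    rw [show G.toF 7 = {G.pt 0, G.pt 1, G.pt 2} by decide +kernel]
    simp [smul_finset_insert, g2]
  have e2 : (g : P24) • G.toF 4127 = {a, b, c} ∪ u := by
    refine (steinerOn_hexads hd).eq (g1 ▸ smul_mem_hexOn g.2 (mem_hexOn_of_isHex (by decide +kernel)).2) h ?_
    refine le_trans (by rw [card_smul_finset]; decide +kernel) (card_le_card (subset_inter
      (smul_finset_subset_smul_finset (G.subset_of_land (a := 31) (by decide))) ?_))
    rw [show G.toF 31 = {G.pt 0, G.pt 1, G.pt 2, G.pt 3, G.pt 4} by decide +kernel]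
    simp [smul_finset_insert, g2, insert_subset_iff, hx, hy]
  refine ⟨g, g1, e1, ?_⟩
  rw [← sdiff_toF (a := 4127) (b := 7) (by decide), smul_finset_sdiff, e1, e2, union_sdiff_cancel_left htu]

theorem t0_mem_q0 : G.toF 7 ∈ decS 4 q0 ∧ G.toF 4120 ∈ decS 4 q0 :=
  ⟨mem_decS.2 ⟨0, by decide, rfl⟩, mem_decS.2 ⟨1, by decide, rfl⟩⟩

theorem eq_smul_q0 {g : M24} {Q : Finset (Finset GolayPt)} (hQ : Q ∈ quartets ((g : P24) • G.toF 340831))
    (h1 : (g : P24) • G.toF 7 ∈ Q) (h2 : (g : P24) • G.toF 4120 ∈ Q) : Q = (g : P24) • decS 4 q0 := by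
  obtain ⟨Q, rfl⟩ := MulAction.surjective (g : P24) Q
  rw [eq_q0 ((smul_mem_quartets g.2).1 hQ) ((smul_mem_smul_iff _).1 h1) ((smul_mem_smul_iff _).1 h2)]

theorem exists_smul_quartet {d : Finset GolayPt} (hd : d ∈ dodecads) {Q : Finset (Finset GolayPt)} (hQ : Q ∈ quartets d) :
    ∃ g : M24, (g : P24) • G.toF 340831 = d ∧ (g : P24) • decS 4 q0 = Q := by
  obtain ⟨t, ht, u, hu, n⟩ := one_lt_card.1 (show 1 < Q.card by rw [hQ.1]; decide)
  obtain ⟨g, rfl, rfl, rfl⟩ := exists_smul_triples hd (hQ.2.1 t ht).1 (hQ.2.1 u hu).1 (hQ.2.2 t ht u hu n)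
  exact ⟨g, rfl, (eq_smul_q0 hQ ht hu).symm⟩

/-- the stabiliser of the standard quartet -/
abbrev quart0 : Subgroup M24 := m12 ⊓ stabilizer M24 (decS 4 q0)

theorem memQ : Mem quart0 (tAnd (tSet 340831) (tFam 4 q0)) := mem12.inf (Mem.fam _ _)

/-- generators -/
def gQ : List ℕ := [860276472555795932647156144992170115, 849902026111058428310074795103879202]

theorem gQ_ok : ∀ c ∈ gQ, ∃ g ∈ quart0, R g c := memQ.list (by decide +kernel)

theorem orbit_q0 : orbit m12 (decS 4 q0) = quartets (G.toF 340831) := Set.ext fun Q => mem_orbit_sub.trans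
  ⟨fun ⟨g, a, b⟩ => by rw [← b, ← show (g : P24) • G.toF 340831 = _ from a]; exact (smul_mem_quartets g.2).2 q0_mem,
    exists_smul_quartet dod0_mem⟩

/-- a hash table -/
def hQ : ℕ := 0x2b00040001001600420026000f000400020005000200010005001a00280001000f001d00070002001e00000010000b00170005001000000016001f0004000d00150000000500010000001800160000000000010025000c000100000003000100020002002e00000000000200020007000900170002000f0008000000040000000000330004

theorem card_quart0 : (quartets (G.toF 340831)).ncard = 220 ∧ Nat.card quart0 = 432 := by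
  have h1 := orbS_le m12 g12_ok (by decide)
    (by decide +kernel : Nat.beq (orbS 4 g12 hQ 67 8056021 281 (fun _ => true) 220 q0) 220 = true)
  have h2 := le_card_of_surOK inj_pt faithful_M24 (by decide +kernel : surOK 24 5 gQ 432 [970499966350631336865513127433832480, 233184771504027660579708118890710080, 486317894067777385906476470720956448, 928718206277989008510816407558424608, 486073779993727295785104656607348768, 970499966350631336865513127433832480]
    [0, 0, 1683982, 21900299, 804192011, 1874992138, 1115565321, 4199941]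
    [(0, [0, 1], 12), (1, [2, 3], 2), (3, [4, 5, 6], 9), (4, [7], 2)] = true) gQ_ok
  have h3 := card_eq_ncard_orbit_mul m12 (decS 4 q0)
  rw [card_m12] at h3
  rw [orbit_q0] at h1 h3
  constructor <;> nlinarith

theorem ncard_quartets {d : Finset GolayPt} (hd : d ∈ dodecads) : (quartets d).ncard = 220 := by
  obtain ⟨g, rfl⟩ := exists_smul_dodecad dod0_mem hd
  exact (ncard_congr_smul (g : P24) fun _ => smul_mem_quartets g.2).trans card_quart0.1

/-- an invariant of pairs of quartets -/
noncomputable def qInv (Q X : Finset (Finset GolayPt)) : ℕ :=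
  (X.filter fun u => meet Q {u} = 7).card + 5 * (X.filter fun u => meet Q {u} = 9).card

theorem qInv_smul (g : P24) (Q X : Finset (Finset GolayPt)) : qInv (g • Q) (g • X) = qInv Q X := by
  rw [qInv, qInv, card_filter_smul g X (meet Q {·} = 7) _ fun t => by rw [meet_smul_one'],
    card_filter_smul g X (meet Q {·} = 9) _ fun t => by rw [meet_smul_one']]

theorem qInv_decS {c : ℕ} (h : (decS 4 c).card = 4) : qInv (decS 4 q0) (decS 4 c) =
    cntB 4 (fun i => Nat.beq (meetC 4 q0 1 (g24 c i)) 7) + 5 * cntB 4 fun i => Nat.beq (meetC 4 q0 1 (g24 c i)) 9 := by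
  rw [qInv, card_filter_decS h _ (fun m => Nat.beq (meetC 4 q0 1 m) 7) fun m hm => by rw [meet_toF _ _ hm, beq_iff],
    card_filter_decS h _ (fun m => Nat.beq (meetC 4 q0 1 m) 9) fun m hm => by rw [meet_toF _ _ hm, beq_iff]]

theorem cls_quartets {d : Finset GolayPt} (hd : d ∈ dodecads) {Q : Finset (Finset GolayPt)} (hQ : Q ∈ quartets d) :
    Cls (stabilizer M24 d ⊓ stabilizer M24 Q) (quartets d) (qInv Q) [(20, 1), (5, 12), (4, 27), (3, 72), (1, 108)] ∧
      qInv Q Q = 20 := by
  obtain ⟨g, rfl, rfl⟩ := exists_smul_quartet hd hQ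
  exact ⟨(cls_of_clsS gQ_ok (φ := qInv (decS 4 q0)) (fun g hg y hy => ⟨by
      rw [← show (g : P24) • G.toF 340831 = _ from hg.1]; exact (smul_mem_quartets g.2).2 hy, by
      rw [← qInv_smul g _ y, show (g : P24) • decS 4 q0 = _ from hg.2]⟩)
    (fun m h => ⟨mem_quartets_of_isQuart h, qInv_decS (mem_quartets_of_isQuart h).1⟩) card_quart0.1
    (by decide +kernel : clsS 4 gQ Mathieu.hQ 67 8056021 281 (isQuart 340831) _ _ [(1547727283083644861367189511, 20, 1), (1276663464188692137680830471, 5, 12), (1549842903141869672789442571, 4, 27), (1276644573448242040521359371, 3, 72), (1239224544874229415658127371, 1, 108)] = true)).cj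
    ((cjSt rfl).inf (cjSt rfl)) (fun _ => smul_mem_quartets g.2) fun y _ => qInv_smul g _ y, by
      rw [qInv_smul, qInv_decS q0_mem.1]; decide +kernel⟩

end Cfsg.Lib.Mathieu
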